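import Cfsg.Agent.Co2C.InvQ
import Cfsg.Agent.Co2C.InvP
import Cfsg.Agent.S62C.Cert
import Cfsg.Agent.HForm.Bridge

set_option autoImplicit false
set_option Elab.async false
set_option maxRecDepth 100000
set_option linter.all false

namespace Cfsg.Agent.Co2C
open Cfsg.Agent.CGT

open Cfsg.Agent.Inv

theorem sp_center : Subgroup.center (Matrix.symplecticGroup (Fin 3) (ZMod 2)) = ⊥ :=
  eq_bot_iff.2 fun g hg => Subtype.ext (((HForm.sp_mem_center_iff' g).1 hg).elim id fun h => h.trans (by decide +kernel))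
theorem q_struct {G : Type*} [Group G] {φ : G →* Equiv.Perm ℕ} {δ : ℕ → G}
    (C2 : Cert φ δ 12 y_ns y_ts [0, 2, 4, 6, 8, 10] cc_ls) (h2 : ev (ext δ) [2] ∈ Subgroup.center G)
    (h3 : orderOf (ev (ext δ) [2]) = 2) : Cfsg.IsExtraspecial 2 (Cfsg.pCore 2 G) ∧ Nat.card (Cfsg.pCore 2 G) = 2 ^ 9 ∧
      Nonempty (G ⧸ Cfsg.pCore 2 G ≃* Matrix.symplecticGroup (Fin 3) (ZMod 2)) := by
  obtain ⟨y, ψ, CK, -⟩ := S62C.cert (ZMod.card 2) (RingEquiv.refl _)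
  obtain ⟨f, hf, hf'⟩ := exists_surj C2 CK (R := qRR) (W := [[6, 0, 2, 6, 8, 10, 8, 6, 0, 10, 4, 8], [], [4, 8, 4, 10], [6, 2, 0, 6, 0, 6, 2, 6], [10, 8, 10], [10, 4, 8, 2, 10, 8, 4, 8]]) (U := [[0, 10, 0, 10, 0, 6, 8, 10, 6], [4, 8, 10, 4], [8, 4, 6, 10, 8, 4, 8, 10, 4, 6], [10, 6, 4, 0, 4, 6, 0, 8, 0, 10], [8, 6, 0, 8, 0, 6, 8], [6, 0, 8, 0, 6]]) (fun h => qbd0 h) (by decide +kernel)
  have := C2.fin
  have := CK.fin
  obtain ⟨h4, h5⟩ := ker_eq_gp hf hf' (W := z_W) (relsD_sound CK.M CK.base (by decide +kernel)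
    (fun _ _ => trivial) (by decide +kernel)) (zc_sound (z_model C2)) CK.card (n := 512)
    (C2.card.trans (by decide +kernel)) (by decide +kernel)
  have h6 : Cfsg.pCore 2 G = f.ker := pCore_eq_ker hf (IsPGroup.of_card (n := 9) (h4 ▸ h5))
    (normal_eq_bot CK (n := 63) (by decide +kernel) (by decide))
  exact ⟨h6 ▸ h4 ▸ z_extra C2 h2 h3 h5, h6 ▸ h4 ▸ h5, ⟨(QuotientGroup.quotientMulEquivOfEq h6).trans
    ((QuotientGroup.quotientKerEquivOfSurjective f hf).trans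
      ((QuotientGroup.quotientMulEquivOfEq sp_center).trans QuotientGroup.quotientBot))⟩⟩

end Cfsg.Agent.Co2C
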