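import Cfsg.Agent.Co2C.InvQD

set_option autoImplicit false
set_option Elab.async false
set_option maxRecDepth 100000
set_option linter.all false

namespace Cfsg.Agent.Co2C
open Cfsg.Agent.CGT

open Cfsg.Agent.Inv

theorem z_t14_b : Tab.beq (mkTab 12 5 z_ns 14) z_t14 = true := by decide +kernel
theorem z_t16_b : Tab.beq (mkTab 12 5 z_ns 16) z_t16 = true := by decide +kernel
theorem z_e0 : extJ 12 y_ns z_ns z_W 0 = true := by decide +kernel
theorem z_e1 : extJ 12 y_ns z_ns z_W 1 = true := by decide +kernel
theorem z_e2 : extJ 12 y_ns z_ns z_W 2 = true := by decide +kernel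
theorem z_e3 : extJ 12 y_ns z_ns z_W 3 = true := by decide +kernel
theorem z_e4 : extJ 12 y_ns z_ns z_W 4 = true := by decide +kernel
theorem z_e5 : extJ 12 y_ns z_ns z_W 5 = true := by decide +kernel

end Cfsg.Agent.Co2C
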