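import Cfsg.Agent.Co2C.InvQD

set_option autoImplicit false
set_option Elab.async false
set_option maxRecDepth 100000
set_option linter.all false

namespace Cfsg.Agent.Co2C
open Cfsg.Agent.CGT

open Cfsg.Agent.Inv

theorem z_e6 : extJ 12 y_ns z_ns z_W 6 = true := by decide +kernel
theorem z_e7 : extJ 12 y_ns z_ns z_W 7 = true := by decide +kernel
theorem z_e8 : extJ 12 y_ns z_ns z_W 8 = true := by decide +kernel
theorem z_cl : closB 12 z_ts (chainBase [] cc_ls) [0, 2, 4, 6, 8, 10, 12, 14, 16] z_E z_P = true := by decide +kernel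
theorem zc_l0_ok : (ptsOK 12 [] && (wordsIn [0, 2, 4, 6, 8, 10, 12, 14, 16] zc_l0.S && zc_l0.ok 12 z_ns z_ts [])) = true := by decide +kernel
theorem zc_l1_ok : zc_l1.okT 12 z_ts [0, 2, 4, 6, 8, 10, 12, 14, 16] [7] (.cons [0] .nil .nil) = true := by decide +kernel
theorem z_ex : extraB 12 z_ts (chainBase [] cc_ls) [0, 2, 4, 6, 8, 10, 12, 14, 16] [16] z_E = true := by decide +kernel

end Cfsg.Agent.Co2C
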