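import Cfsg.Agent.Co2C.InvQT0
import Cfsg.Agent.Co2C.InvQT1
import Cfsg.Agent.Co2C.InvQT2

set_option autoImplicit false
set_option Elab.async false
set_option maxRecDepth 100000
set_option linter.all false

namespace Cfsg.Agent.Co2C
open Cfsg.Agent.CGT

open Cfsg.Agent.Inv

theorem z_ts_ok : TabsOK 12 (lp z_ns) z_ts :=
  TabsFrom.ok ⟨TabOK.of_beq z_v z_t0_b,
    TabOK.next (j := 0) (TabOK.of_beq z_v z_t0_b) z_p (by decide +kernel),
    TabOK.of_beq z_v z_t2_b,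
    TabOK.next (j := 1) (TabOK.of_beq z_v z_t2_b) z_p (by decide +kernel),
    TabOK.of_beq z_v z_t4_b,
    TabOK.next (j := 2) (TabOK.of_beq z_v z_t4_b) z_p (by decide +kernel),
    TabOK.of_beq z_v z_t6_b,
    TabOK.next (j := 3) (TabOK.of_beq z_v z_t6_b) z_p (by decide +kernel),
    TabOK.of_beq z_v z_t8_b,
    TabOK.next (j := 4) (TabOK.of_beq z_v z_t8_b) z_p (by decide +kernel),
    TabOK.of_beq z_v z_t10_b,
    TabOK.next (j := 5) (TabOK.of_beq z_v z_t10_b) z_p (by decide +kernel),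
    TabOK.of_beq z_v z_t12_b,
    TabOK.next (j := 6) (TabOK.of_beq z_v z_t12_b) z_p (by decide +kernel),
    TabOK.of_beq z_v z_t14_b,
    TabOK.next (j := 7) (TabOK.of_beq z_v z_t14_b) z_p (by decide +kernel),
    TabOK.of_beq z_v z_t16_b,
    TabOK.next (j := 8) (TabOK.of_beq z_v z_t16_b) z_p (by decide +kernel),
    Nat.le_of_ble_eq_true (by decide +kernel)⟩
theorem z_ext : extOK 12 y_ns z_ns z_W = true := extOK_of rfl (fun j hj => by
    change j < 9 at hj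
    interval_cases j
    exacts [z_e0, z_e1, z_e2, z_e3, z_e4, z_e5, z_e6, z_e7, z_e8])
theorem zc_sound {G : Type*} [Group G] {φ : G →* Equiv.Perm ℕ} {γ : ℕ → G}
    (M : Model φ γ 12 z_ns z_ts) : ChainSound φ (gp γ [0, 2, 4, 6, 8, 10, 12, 14, 16]) 12 [] zc_ls :=
  ⟨Level.ok_sound' M zc_l0_ok,
   Level.okT_sound M zc_l1_ok, trivial⟩
theorem z_model {G : Type*} [Group G] {φ : G →* Equiv.Perm ℕ} {δ : ℕ → G}
    (C : Cert φ δ 12 y_ns y_ts [0, 2, 4, 6, 8, 10] cc_ls) : Model φ (wg δ z_W) 12 z_ns z_ts := C.M.extend z_v z_ext z_ts_ok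
theorem z_mem {G : Type*} [Group G] {φ : G →* Equiv.Perm ℕ} {δ : ℕ → G}
    (C : Cert φ δ 12 y_ns y_ts [0, 2, 4, 6, 8, 10] cc_ls) : ∀ x ∈ gp (wg δ z_W) [0, 2, 4, 6, 8, 10, 12, 14, 16], ∃ e ∈ z_E, ev (ext (wg δ z_W)) e = x :=
  haveI := C.fin
  fun _ => mem_list (z_model C) C.base (by decide +kernel) (by decide +kernel) z_cl
theorem z_extra {G : Type*} [Group G] {φ : G →* Equiv.Perm ℕ} {δ : ℕ → G}
    (C : Cert φ δ 12 y_ns y_ts [0, 2, 4, 6, 8, 10] cc_ls) (h2 : ev (ext δ) [2] ∈ Subgroup.center G)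
    (h3 : orderOf (ev (ext δ) [2]) = 2) (h : Nat.card (gp (wg δ z_W) [0, 2, 4, 6, 8, 10, 12, 14, 16]) = 512) : Cfsg.IsExtraspecial 2 (gp (wg δ z_W) [0, 2, 4, 6, 8, 10, 12, 14, 16]) := by
  have := C.fin
  have e : ev (ext (wg δ z_W)) [16] = ev (ext δ) [2] := (ev_singleton _ _).trans (ext_two_mul _ 8)
  exact extra_of_list (z_model C) C.base (z_mem C) (e ▸ h2) (e ▸ h3) (n := 7) h z_ex

end Cfsg.Agent.Co2C
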