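import Cfsg.Agent.Co2C.InvXD

set_option autoImplicit false
set_option Elab.async false
set_option maxRecDepth 100000
set_option linter.all false

namespace Cfsg.Agent.Co2C
open Cfsg.Agent.CGT

open Cfsg.Agent.Inv

theorem x_p : Holds (lp x_ns) x_R := holdsB_sound x_v (by decide +kernel)
theorem x_t0_b : Tab.beq (mkTab 12 5 x_ns 0) x_t0 = true := by decide +kernel
theorem x_t2_b : Tab.beq (mkTab 12 5 x_ns 2) x_t2 = true := by decide +kernel
theorem x_t4_b : Tab.beq (mkTab 12 5 x_ns 4) x_t4 = true := by decide +kernel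
theorem x_t6_b : Tab.beq (mkTab 12 5 x_ns 6) x_t6 = true := by decide +kernel
theorem x_t8_b : Tab.beq (mkTab 12 5 x_ns 8) x_t8 = true := by decide +kernel
theorem x_t10_b : Tab.beq (mkTab 12 5 x_ns 10) x_t10 = true := by decide +kernel
theorem x_t12_b : Tab.beq (mkTab 12 5 x_ns 12) x_t12 = true := by decide +kernel

end Cfsg.Agent.Co2C
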