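import Cfsg.Agent.Co2C.InvXD

set_option autoImplicit false
set_option Elab.async false
set_option maxRecDepth 100000
set_option linter.all false

namespace Cfsg.Agent.Co2C
open Cfsg.Agent.CGT

open Cfsg.Agent.Inv

theorem x_t14_b : Tab.beq (mkTab 12 5 x_ns 14) x_t14 = true := by decide +kernel
theorem x_e0 : extJ 12 m_ns x_ns x_W 0 = true := by decide +kernel
theorem x_e1 : extJ 12 m_ns x_ns x_W 1 = true := by decide +kernel
theorem x_e2 : extJ 12 m_ns x_ns x_W 2 = true := by decide +kernel
theorem x_e3 : extJ 12 m_ns x_ns x_W 3 = true := by decide +kernel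
theorem x_e4 : extJ 12 m_ns x_ns x_W 4 = true := by decide +kernel
theorem x_e5 : extJ 12 m_ns x_ns x_W 5 = true := by decide +kernel
theorem x_e6 : extJ 12 m_ns x_ns x_W 6 = true := by decide +kernel

end Cfsg.Agent.Co2C
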