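import Cfsg.Agent.Mult.Slices
import Cfsg.Agent.Co2C.Mul2D

set_option autoImplicit false
set_option Elab.async false
set_option maxRecDepth 100000
set_option linter.all false

namespace Cfsg.Agent.Co2C
open Cfsg.Agent.CGT

open Cfsg.Agent.Mult

set_option Elab.async false
theorem u2_t1 : u2_D.vecsK (u2_D.M u2_c) u2_c.F [.fus 18 [3, 1] [1, 3, 7, 8, 10, 11, 12], .fus 18 [6, 1] [1, 6, 9], .fus 18 [4, 1] [1, 4, 7, 9, 12, 13], .fus 19 [18, 18] [29], .fus 19 [27, 20] [20, 27, 29], .fus 19 [16, 16] [24], .fus 19 [23, 21] [21, 23, 27], .fus 19 [20, 18] [18, 20, 27, 28], .fus 19 [22, 22] [], .fus 19 [18, 16] [16, 18, 24, 25, 30], .fus 19 [15, 15] [21, 22], .fus 19 [16, 15] [15, 16, 21, 22], .fus 19 [19, 16] [16, 19, 22], .fus 19 [20, 20] [24, 26, 29], .fus 19 [17, 15] [15, 17, 21, 23, 24, 25, 27, 28, 29], .fus 19 [20, 16] [16, 20, 22, 24, 25, 26, 28, 30], .fus 19 [20, 15] [15, 20, 22, 23, 24, 25, 27, 29], .fus 19 [20,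 14] [14, 20, 24], .fus 20 [39, 32] [32, 39, 40], .fus 20 [36, 33] [33, 36, 38, 40], .fus 20 [32, 32] [], .fus 20 [36, 34] [34, 36, 38, 39], .fus 20 [35, 35] [], .fus 20 [37, 31] [31, 37, 39], .fus 21 [41, 41] []] (fun l => beqL l u2_v1) = true := by decide +kernel
theorem u2_l : u2_D.linB u2_c (u2_v0 ++ (u2_v1)) = true := by decide +kernel

end Cfsg.Agent.Co2C
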