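import Cfsg.Agent.Mult.Slices
import Cfsg.Agent.Co2C.Cert

set_option autoImplicit false
set_option Elab.async false
set_option maxRecDepth 100000
set_option linter.all false

namespace Cfsg.Agent.Co2C
open Cfsg.Agent.CGT

open Cfsg.Agent.Mult

noncomputable def u3_D : PC := ⟨3, 6, 2, 22,
  [[0, 4, 0x50, 0x440, 0x500, 0x400], [0, 0, 0x110, 0x440, 0x900, 0x400], [0, 0, 0x400, 0x840, 0x900, 0x400], [0, 0, 0, 0, 0x100, 0x400], [0, 0, 0, 0, 0, 0x400], [0, 0, 0, 0, 0, 0]],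
  [0xfc, 0x3f, 0xf, 0, 0, 0],
  [(6, 1, 8), (6, 4, 0x946), (6, 0x10, 0xaa6), (6, 0x40, 0x900), (6, 0x100, 0xa40), (6, 0x400, 0x400)], 13, 0x20304030105020400010005⟩
noncomputable def u3_ds : List (List ℕ) := [[6, 0, 12, 4, 8, 2, 10, 6, 8, 2, 6, 8, 4, 10], [0, 8, 12, 8, 6, 8, 10, 8, 0, 6, 12, 4, 8, 12], [14, 10, 8, 14, 6, 4, 14, 0, 12, 0, 4, 12, 10, 6, 10, 8, 2, 4, 8, 0, 10], [0, 8, 0, 4, 8, 2, 10, 4, 2, 12, 4, 0, 14, 12, 0, 12, 6, 2, 8, 2], [0, 6, 10, 8, 4, 12, 0, 4, 10, 12, 8, 14, 10, 2, 10, 4, 10, 0, 12], [8, 12, 6, 0, 8, 2, 8, 0, 10, 6, 0, 12, 8, 12, 8, 14, 4, 6, 14, 4], [8, 2, 0, 10, 4, 2, 8, 12, 0, 8, 10, 12, 14, 12, 0, 4, 14, 6, 0]]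
noncomputable def u3_c : Mult.Cert := ⟨126, 20, [[], [], [], [2], [8], [3]],
  [],
  [[0xddf35b, 0x2cc337b4, 0, 0, 0xe71d694, 0x1be00c7], [0, 0x1bc19dd, 0, 0x3b8f1076, 0x3a6b172e, 0xe30e5c], [0, 0, 0x296b0465, 0x2e477c1d, 0x311afe19, 0x17179149], [0, 0, 0, 0x8b8b7de, 0x17fb864e, 0xf650b86], [0, 0, 0, 0, 0x635b167, 0x521ae82], [0, 0, 0, 0, 0, 0x30a7a6]]⟩

end Cfsg.Agent.Co2C
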