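import Cfsg.Agent.Mult.Slices
import Cfsg.Agent.Co2C.Mul3D

set_option autoImplicit false
set_option Elab.async false
set_option maxRecDepth 100000
set_option linter.all false

namespace Cfsg.Agent.Co2C
open Cfsg.Agent.CGT

open Cfsg.Agent.Mult

set_option Elab.async false
theorem u3_all : allB u3_D u3_c [.assoc 0x10 0x20 0x10, .assoc 0x400 0x10 1, .assoc 0x400 0x10 4, .assoc 0x40 4 1, .assoc 0x10 4 1, .assoc 0x80 0x40 1, .assoc 0x100 4 1, .assoc 0x10 2 1, .assoc 0x40 0x10 4, .assoc 0x10 8 4, .fus 6 [0, 0, 0] [], .fus 6 [3, 0] [0, 3, 5], .fus 6 [3, 1] [1, 3, 5], .fus 6 [1, 0] [0, 1], .fus 6 [3, 2] [2, 3, 5, 5], .fus 6 [4, 1] [1, 4, 5, 5], .fus 6 [1, 1, 1] [], .fus 6 [4, 2] [2, 4, 5, 5], .fus 6 [2, 2, 2] [5]] 12 m_ts u3_ds [3, 1, 9, 5, 2, 0] [(9, [0x10]), (0, [0x400, 0x100, 0x40]), (3, [4]), (1, [5])] = true := by decide +kernel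

end Cfsg.Agent.Co2C
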